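import Cfsg.Agent.H5.More
import Cfsg.Agent.H3.BlkMisc

/-!
# Fong's theorem on defect groups of blocks covering an invariant block
-/

set_option autoImplicit false
set_option maxHeartbeats 400000
set_option linter.unusedSectionVars false
set_option linter.style.haveILetI false

namespace Cfsg.Agent.H5

open Cfsg MonoidAlgebra Cfsg.Agent.H3 Cfsg.Agent.L
open scoped ComplexConjugate

variable {G : Type*} [Group G] [Finite G]

theorem trunc_classSum_eq {k : Type*} [CommRing k] (H : Subgroup G) (x : G)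
    [Fintype (ConjClasses H)] [DecidablePred fun K : ConjClasses H => IsConj x (K.out : H)] :
    trunc H (classSum k x) = ∑ K : ConjClasses H with IsConj x (K.out : H), classSum k K.out := by
  rw [eq_sum_classSum (trunc_mem_Zc H (classSum_mem_Zc x)), Finset.sum_filter]
  refine Finset.sum_congr rfl fun K _ => ?_
  rw [coeff_trunc, coeff_classSum]
  split_ifs <;> simp

variable {M : Ideal AlgInt} [hMm : M.IsMaximal]

theorem IsUnion.exists_coeff_ne_zero {A : Set (IrrCharacter G)} (hA : IsUnion M A) {x : G}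
    (hx : (eB M A).coeff x ≠ 0) : ∃ B, IsPBlock M B ∧ B ⊆ A ∧ (eB M B).coeff x ≠ 0 := by
  classical
  rw [eB, hA.fA_eq_sum, redA_sum _ fun B _ => IsPBlock.fA_mem B.2, coeff_sum'] at hx
  obtain ⟨B, hB, h⟩ := Finset.exists_ne_zero_of_sum_ne_zero hx
  exact ⟨B.1, B.2, (Finset.mem_filter.1 hB).2, h⟩

variable (N : Subgroup G) [hN : N.Normal]

theorem exists_classCount (x : N) : ∃ t : ℕ, (cz (x : G)).index = t * (cz x).index ∧
    ∀ b : Set (IrrCharacter N), IsPBlock M b → IsInvSet N b → ∀ θ ∈ b,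
      lam M (θ : N → ℂ) (trunc N (classSum (Res M) (x : G))) =
        t * lam M (θ : N → ℂ) (classSum (Res M) x) := by
  classical
  have := Fintype.ofFinite (ConjClasses N)
  have := Fintype.ofFinite N
  have key : ∀ K : ConjClasses N, IsConj (x : G) (K.out : N) → ∃ g : G, ∀ θ : IrrCharacter N,
      centralChar (θ : N → ℂ) K.out = centralChar (cjIrr N g θ : N → ℂ) x := fun K hK => by
    obtain ⟨g, hg⟩ := isConj_iff.1 hK
    refine ⟨g, fun θ => ?_⟩
    rw [show K.out = MulAut.conjNormal g x from Subtype.ext hg.symm]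
    exact (centralChar_comp_mulEquiv (MulAut.conjNormal g : MulAut N) _ _).symm
  refine ⟨(Finset.univ.filter fun K : ConjClasses N => IsConj (x : G) (K.out : N)).card, ?_,
    fun b hb hinv θ hθ => ?_⟩
  · have h1 : Over N (irrOne G : G → ℂ) (irrOne N : N → ℂ) :=
      (over_one_iff N (irrOne G).2).2 fun _ _ => rfl
    have h2 := h1.om_cut (irrOne G).2 (irrOne N).2 (classSum_mem_Zc (x : G))
    rw [cut_normal_classSum N x.2, om_classSum (irrOne G).2.isCharacter.isClassFunction,
      centralChar_irrOne, trunc_classSum_eq, map_sum, Finset.sum_congr rfl (g := fun _ =>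
        ((cz x).index : ℂ)) fun K hK => ?_, Finset.sum_const, nsmul_eq_mul] at h2
    · exact_mod_cast h2
    · obtain ⟨g, hg⟩ := key K (Finset.mem_filter.1 hK).2
      rw [om_classSum (irrOne N).2.isCharacter.isClassFunction, hg]
      exact centralChar_irrOne x
  · rw [trunc_classSum_eq, map_sum, Finset.sum_congr rfl (g := fun _ =>
        lam M (θ : N → ℂ) (classSum (Res M) x)) fun K hK => ?_, Finset.sum_const, nsmul_eq_mul]
    obtain ⟨g, hg⟩ := key K (Finset.mem_filter.1 hK).2
    rw [lam_classSum θ.2.isCharacter.isClassFunction, hg,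
      ← lam_classSum (cjIrr N g θ).2.isCharacter.isClassFunction, IsPBlock.lam_eq hb (hinv g θ hθ) hθ]

variable {p : ℕ} [hp : Fact p.Prime] [CharP (Res M) p]

/-- Fong's theorem. -/
theorem fong [Fintype N] {b : Set (IrrCharacter N)} (hb : IsPBlock M b) (hinv : IsInvSet N b)
    {B : Set (IrrCharacter G)} (hB : IsPBlock M B) (hcov : ∃ χ ∈ B, ∃ θ ∈ b, Over N χ θ)
    (hmax : ∀ B' : Set (IrrCharacter G), IsPBlock M B' → (∃ χ ∈ B', ∃ θ ∈ b, Over N χ θ) →
      blockDefect p B' ≤ blockDefect p B) {P : Subgroup G} (hP : IsDefectGroup p M B P) :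
    ¬ p ∣ (P ⊔ N).index ∧ IsDefectGroup p M b ((P ⊓ N).subgroupOf N) ∧
      blockDefect p B = blockDefect p b + N.index.factorization p := by
  have hA := isUnion_above N (IsPBlock.isUnion hb)
  obtain ⟨χ, hχ⟩ := IsPBlock.nonempty hB
  obtain ⟨θ, hθ⟩ := IsPBlock.nonempty hb
  have heA : eB M (above N b) = incl N (eB M b) := by rw [eB_above, hinv.orb_eq]
  have hmem : ∀ x, (eB M (above N b)).coeff x ≠ 0 → x ∈ N := fun x hx => by
    by_contra h
    exact hx (heA ▸ coeff_incl_of_notMem N _ h)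
  have hlam : ∀ B' : Set (IrrCharacter G), IsPBlock M B' → (∃ χ ∈ B', ∃ θ ∈ b, Over N χ θ) → ∀ ψ ∈ B', ∀ x ∈ N,
      lam M (ψ : G → ℂ) (classSum (Res M) x) =
        lam M (θ : N → ℂ) (trunc N (classSum (Res M) x)) := fun B' hB' hc ψ hψ x hx => by
    rw [← lam_cut_of_cover hB' hb hc hψ hθ (classSum_mem_Zc x), cut_normal_classSum N hx]
  obtain ⟨x, hx, hx', hPx⟩ : ∃ x, (eB M (above N b)).coeff x ≠ 0 ∧
      lam M (χ : G → ℂ) (classSum (Res M) x) ≠ 0 ∧ IsSylowIn p P (cz x) := by
    obtain ⟨x, hx, hx'⟩ := exists_classSum_of_ne_zero (φ := lam M (χ : G → ℂ))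
      (eB_mem_Zc (above N b)) (by
        rw [hA.lam_eB_of_mem (subset_above_of_cover hB (IsPBlock.isUnion hb) hcov hχ)]
        exact one_ne_zero)
    obtain ⟨B', hB', hsub, hc⟩ := hA.exists_coeff_ne_zero hx
    obtain ⟨ψ, hψ⟩ := IsPBlock.nonempty hB'
    have hcov' : ∃ χ ∈ B', ∃ θ ∈ b, Over N χ θ := ⟨ψ, hψ, hsub hψ⟩
    have hdef : IsDefectClass M B' x := (isDefectClass_iff hB' hψ).2 ⟨hc, by
      rwa [hlam B' hB' hcov' ψ hψ x (hmem x hx), ← hlam B hB hcov χ hχ x (hmem x hx)]⟩
    obtain ⟨D, hD⟩ := exists_isSylowIn p (cz x)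
    have h1 := IsDefectGroup.card_eq hB' (isDefectGroup_iff.2 ⟨x, hdef, hD⟩)
    obtain ⟨y, hy⟩ := (IsDefectGroup.subConj_of_lam hB hP hχ hx' hD).exists_eq (by
      rw [h1, IsDefectGroup.card_eq hB hP]
      exact Nat.pow_le_pow_right hp.out.pos (hmax B' hB' hcov'))
    have hc : IsConj x (y⁻¹ * x * y⁻¹⁻¹) := isConj_iff.2 ⟨y⁻¹, rfl⟩
    refine ⟨y⁻¹ * x * y⁻¹⁻¹, by rwa [← coeff_eq_of_isConj (eB_mem_Zc _) hc],
      by rwa [← classSum_eq_of_isConj hc], ?_⟩
    have h2 := isSylowIn_cj hD y⁻¹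
    rwa [cj_cz, ← hy, cj_cj, inv_mul_cancel, cj_one] at h2
  have hxN := hmem x hx
  obtain ⟨t, ht, ht'⟩ := exists_classCount (M := M) N ⟨x, hxN⟩
  rw [hlam B hB hcov χ hχ x hxN, ht' b hb hinv θ hθ] at hx'
  have hpt : ¬ p ∣ t := fun h => left_ne_zero_of_mul hx' ((CharP.cast_eq_zero_iff _ p t).2 h)
  have hdef : IsDefectClass M b ⟨x, hxN⟩ := (isDefectClass_iff hb hθ).2
    ⟨by rwa [heA, coeff_incl_of_mem N _ hxN] at hx, right_ne_zero_of_mul hx'⟩
  have hSy : IsSylowIn p ((P ⊓ N).subgroupOf N) (cz (⟨x, hxN⟩ : N)) := by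
    have h1 := (hPx.inf_normal N).comap_of_injective N.subtype N.subtype_injective
      (by rw [Subgroup.range_subtype]; exact inf_le_right)
    rwa [Subgroup.comap_inf (cz x), show N.comap N.subtype = ⊤ from N.subgroupOf_self, inf_top_eq,
      show (cz x).comap N.subtype = _ from comap_cz_of_injective N.subtype N.subtype_injective
        ⟨x, hxN⟩] at h1
  have hDb : IsDefectGroup p M b ((P ⊓ N).subgroupOf N) := isDefectGroup_iff.2 ⟨_, hdef, hSy⟩
  have e1 : (Nat.card (cz x)).factorization p = blockDefect p B :=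
    Nat.pow_right_injective hp.out.two_le (hPx.card_eq.symm.trans (IsDefectGroup.card_eq hB hP))
  have e2 : (Nat.card (cz (⟨x, hxN⟩ : N))).factorization p = blockDefect p b :=
    Nat.pow_right_injective hp.out.two_le (hSy.card_eq.symm.trans (IsDefectGroup.card_eq hb hDb))
  have e3 := factorization_card_eq p (cz x)
  have e4 := factorization_card_eq p (cz (⟨x, hxN⟩ : N))
  have e5 := factorization_card_eq p N
  have e6 : (cz x).index.factorization p = (cz (⟨x, hxN⟩ : N)).index.factorization p := by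
    rw [show (cz x).index = _ from ht, Nat.factorization_mul (fun h : t = 0 => hpt (h ▸ dvd_zero p))
      Subgroup.index_ne_zero_of_finite, Finsupp.add_apply,
      Nat.factorization_eq_zero_of_not_dvd hpt, zero_add]
  have e7 : blockDefect p B = blockDefect p b + N.index.factorization p := by omega
  refine ⟨?_, hDb, e7⟩
  have e8 : N.relIndex (P ⊔ N) * (P ⊔ N).index = N.index := Subgroup.relIndex_mul_index le_sup_right
  have e9 : Nat.card ((P ⊓ N).subgroupOf N) * N.relIndex P = Nat.card P := by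
    rw [card_subgroupOf_of_le inf_le_right, ← card_subgroupOf_of_le (inf_le_left (a := P) (b := N)),
      Subgroup.inf_subgroupOf_left]
    exact (N.subgroupOf P).card_mul_index
  rw [Subgroup.relIndex_sup_right] at e8
  rw [IsDefectGroup.card_eq hb hDb, IsDefectGroup.card_eq hB hP, e7, pow_add] at e9
  rw [Nat.eq_of_mul_eq_mul_left (pow_pos hp.out.pos _) e9] at e8
  intro h
  refine Nat.pow_succ_factorization_not_dvd (Subgroup.index_ne_zero_of_finite (H := N)) hp.out ?_
  rw [pow_succ]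
  conv_rhs => rw [← e8]
  exact mul_dvd_mul_left _ h

end Cfsg.Agent.H5
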