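import Cfsg.Agent.H5.FrobBlk
import Cfsg.Agent.H5.ZStar

/-!
# Brauer's theorem on homocyclic Sylow 2-subgroups of rank two
-/

set_option autoImplicit false
set_option maxHeartbeats 400000
set_option linter.unusedSectionVars false
set_option linter.style.haveILetI false

namespace Cfsg.Agent.H5

open Cfsg MonoidAlgebra Cfsg.Agent.H3 Cfsg.Agent.L
open scoped ComplexConjugate

theorem not_mixed_sign {a b : ℤ} (ha : 16 ∣ a - 1) (hb : 16 ∣ b - 1) (ha0 : 0 < a) (hb0 : b < 0)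
    (h : (1 + a + b) * (a * b + a + b) = 9 * (a * b)) : False := by
  obtain ⟨r, rfl⟩ : ∃ r, a = 2 * r - 1 := ⟨(a + 1) / 2, by omega⟩
  obtain ⟨s, rfl⟩ : ∃ s, b = -s := ⟨-b, by ring⟩
  have h1 : r * (s ^ 2 + (2 * r - 1) - (2 * r - 8) * s) = 4 * s := by nlinarith
  have hc : IsCoprime r 4 := by
    obtain ⟨m, rfl⟩ : ∃ m, r = 4 * m + 1 := ⟨(r - 1) / 4, by omega⟩
    exact ⟨1, -m, by ring⟩
  obtain ⟨k, rfl⟩ := hc.dvd_of_dvd_mul_left ⟨_, h1.symm⟩
  have hr : 0 < r := by omega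
  have h2 : (r * k) ^ 2 + (2 * r - 1) - (2 * r - 8) * (r * k) = 4 * k :=
    mul_left_cancel₀ hr.ne' (by rw [h1]; ring)
  have hk : 0 < k := by nlinarith
  by_cases hk1 : k = 1
  · rw [hk1] at hb; omega
  · have h3 : 0 ≤ r ^ 2 * (k * (k - 2)) := by
      have : 0 ≤ k - 2 := by omega
      positivity
    nlinarith

theorem eq_one_of_brauer_eq {a b : ℤ} (ha : 16 ∣ a - 1) (hb : 16 ∣ b - 1)
    (h : (1 + a + b) * (a * b + a + b) = 9 * (a * b)) : a = 1 := by
  have h1 : a * (b - 1) ^ 2 + b * (a - 1) ^ 2 + (a - b) ^ 2 = 0 := by linear_combination h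
  rcases lt_or_gt_of_ne (show a ≠ 0 by omega) with ha0 | ha0 <;>
    rcases lt_or_gt_of_ne (show b ≠ 0 by omega) with hb0 | hb0
  · have h2 : a + 15 ≤ 0 := by omega
    have h3 : b + 15 ≤ 0 := by omega
    have h4 : 0 < a * b := mul_pos_of_neg_of_neg ha0 hb0
    have h5 : 0 < a * b + a + b := by nlinarith
    nlinarith
  · exact (not_mixed_sign hb ha hb0 ha0 (by linear_combination h)).elim
  · exact (not_mixed_sign ha hb ha0 hb0 h).elim
  · have h2 : 0 ≤ a * (b - 1) ^ 2 := by positivity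
    have h3 : b * (a - 1) ^ 2 ≤ 0 := by nlinarith [sq_nonneg (a - b)]
    have h4 : (a - 1) ^ 2 ≤ 0 := by
      by_contra h5
      nlinarith [mul_pos hb0 (not_le.1 h5)]
    nlinarith [sq_nonneg (a - 1)]

variable {G : Type*} [Group G] [Finite G]

theorem exists_lam_trivial_on_involutions {P : Sylow 2 G} (h : FrobSyl P) {x : sP P}
    (hx : x * x ≠ 1) : ∃ l : Lam P, ∀ v : sP P, v * v = 1 → (l.1 : sP P → ℂ) v = 1 := by
  obtain ⟨m, hm⟩ : ∃ m : IrrCharacter (sP P), (m : sP P → ℂ) (x * x) ≠ (m : sP P → ℂ) 1 := by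
    by_contra hc
    push Not at hc
    exact hx (eq_one_of_forall_irr hc)
  refine ⟨⟨⟨_, m.2.mul_linear m.2.isCharacter (h.irr_one m)⟩, fun e => hm ?_⟩, fun v hv => ?_⟩
  · rw [h.irr_mul, h.irr_one]
    exact congrFun (congrArg Subtype.val e) x
  · show (m : sP P → ℂ) v * (m : sP P → ℂ) v = 1
    rw [← h.irr_mul, hv, h.irr_one]

theorem FrobSyl.exists_ker {P : Sylow 2 G} (h : FrobSyl P) (he : (cP P).relIndex (nP P) = 3)
    (h16 : 16 ∣ Nat.card (sP P)) {x : sP P} (hx : x * x ≠ 1) :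
    ∃ χ : IrrCharacter G, χ ≠ irrOne G ∧ ∀ g, 2 ∣ orderOf g → (χ : G → ℂ) g = (χ : G → ℂ) 1 := by
  classical
  obtain ⟨M, hM⟩ := exists_isPModular 2
  have := hM.2.1
  have := charP_res hM
  have := Fintype.ofFinite (Orb P)
  have := Fintype.ofFinite (sP P)
  have ht : 5 ≤ Nat.card (Orb P) := by
    have h1 := h.card_Orb
    have h2 := Nat.le_of_dvd Nat.card_pos h16
    rw [he] at h1
    omega
  have : Nontrivial (Orb P) := Finite.one_lt_card_iff_nontrivial.1 (by omega)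
  obtain ⟨ε, a, hε, ζ, hζ, hmem, hc, hnon⟩ := h.exists_exceptional (M := M)
  obtain ⟨l, hl⟩ := exists_lam_trivial_on_involutions h hx
  set i := orbOf l with hi
  set S := Finset.univ.filter (· ∈ principalBlock M G) \ Finset.univ.image ζ with hS
  have hS1 : irrOne G ∈ S := Finset.mem_sdiff.2
    ⟨Finset.mem_filter.2 ⟨Finset.mem_univ _, irrOne_mem_principalBlock⟩, fun h1 => by
      obtain ⟨j, -, hj⟩ := Finset.mem_image.1 h1
      obtain ⟨k, hk⟩ := exists_ne j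
      have h2 := hc j j
      have h3 := hc k j
      rw [hj, col_irrOne] at h2 h3
      rw [if_pos rfl] at h2
      rw [if_neg hk] at h3
      omega⟩
  have hn := h.norm_nonexc hε hζ hmem hc i
  rw [he, ← hS, ← Finset.add_sum_erase _ _ hS1, col_irrOne] at hn
  have ha : a = 0 := by
    have h1 : 0 ≤ ∑ χ ∈ S.erase (irrOne G), col i χ ^ 2 := Finset.sum_nonneg fun _ _ => sq_nonneg _
    have h2 : (5 : ℤ) ≤ Nat.card (Orb P) := by exact_mod_cast ht
    by_contra h3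
    have h4 : 1 ≤ a ^ 2 := by
      have := sq_pos_of_ne_zero h3
      omega
    have h5 := mul_le_mul_of_nonneg_right h2 (sq_nonneg a)
    push_cast at hn
    rcases hε with rfl | rfl <;> nlinarith [sq_nonneg (a - 1), sq_nonneg (a + 1)]
  subst ha
  obtain ⟨χ₂, h₂, χ₃, h₃, h23, e₂, e₃, h0⟩ := exists_pair_of_sum_sq (S.erase (irrOne G)) (col i)
    (by push_cast at hn; linear_combination hn)
  have key : ∀ F : IrrCharacter G → ℂ, ∑ χ with χ ∈ principalBlock M G, (col i χ : ℂ) * F χ =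
      -F (irrOne G) + (col i χ₂ * F χ₂ + col i χ₃ * F χ₃) + ε * F (ζ i) := fun F => by
    rw [← Finset.sum_sdiff (s₁ := Finset.univ.image ζ) (fun χ hχ => by
      obtain ⟨j, -, rfl⟩ := Finset.mem_image.1 hχ
      exact Finset.mem_filter.2 ⟨Finset.mem_univ _, hmem j⟩), Finset.sum_image fun _ _ _ _ e => hζ e,
      ← hS, ← Finset.add_sum_erase _ _ hS1, col_irrOne, Finset.sum_eq_add_of_mem χ₂ χ₃ h₂ h₃ h23
        fun k hk hk' => by rw [h0 k hk hk'.1 hk'.2, Int.cast_zero, zero_mul],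
      Finset.sum_eq_single_of_mem i (Finset.mem_univ _) fun j _ hj => by
        rw [hc, if_neg hj.symm]; simp, hc, if_pos rfl]
    push_cast; ring
  have hconst : ∀ χ ∈ S.erase (irrOne G), χ ∈ principalBlock M G ∧ ∀ j : Orb P, col j χ = col i χ :=
    fun χ hχ => by
      have h1 := Finset.mem_sdiff.1 (Finset.mem_of_mem_erase hχ)
      have h2 := (Finset.mem_filter.1 h1.1).2
      exact ⟨h2, fun j => hnon χ h2 (fun ⟨k, hk⟩ => h1.2 (Finset.mem_image.2
        ⟨k, Finset.mem_univ _, hk⟩)) j i⟩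
  obtain ⟨n, hz2, hz1⟩ := exists_pow_involution (w := x) (P.2 x) (fun e => hx (by rw [e, mul_one]))
  set z := x ^ n with hz
  have hA := h.col_reg (M := M) i (y := 1) not_dvd_orderOf_one
  have hC : ∑ χ with χ ∈ principalBlock M G,
      (col i χ : ℂ) * ((χ : G → ℂ) z * (χ : G → ℂ) z / (χ : G → ℂ) 1) = 0 := by
    simp only [hi, ← cast_col]
    rw [sum_classInner_mul, Finset.sum_eq_zero, mul_zero]
    intro v _
    by_cases hv : v * v = 1
    · simp [hl v hv]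
    rw [sum_sq_div_mul_conj_eq_zero (IsPBlock.isUnion isPBlock_principalBlock) (p := 2), mul_zero]
    intro g hg
    rw [pPart_of_pElt (isPElt_of_mem P.2 v.2)] at hg
    obtain ⟨c, hc⟩ := isConj_iff.1 hg
    have hz2' : (z : G) * z = 1 := congrArg Subtype.val hz2
    have h1 := H6.inverts_mul_left hz2' (H6.conj_mul_self hz2' g)
    have h2 : z * pPart 2 (z * (g * z * g⁻¹)) * (z : G)⁻¹ = (pPart 2 (z * (g * z * g⁻¹)))⁻¹ := by
      rw [← pPart_conj, h1, pPart_inv]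
    have h3 : c * z * c⁻¹ * v * (c * z * c⁻¹)⁻¹ = (v : G)⁻¹ := by
      rw [← hc]
      calc _ = c * (z * pPart 2 (z * (g * z * g⁻¹)) * (z : G)⁻¹) * c⁻¹ := by group
        _ = _ := by rw [h2]; group
    have h4 : c * z * c⁻¹ ∈ Subgroup.normalizer (Subgroup.zpowers (v : G) : Set G) :=
      H6.mem_normalizer_of_forall fun w hw => by
        rw [H6.inverts_of_mem_zpowers h3 hw]; exact inv_mem hw
    have h5 := H6.isPGroup_sup_of_le_normalizer
      (H6.isPGroup_zpowers_of_mul_self (H6.conj_mul_self hz2' c))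
      (isPGroup_zpowers (isPElt_of_mem P.2 v.2)) (Subgroup.zpowers_le.2 h4)
    obtain ⟨d, hd⟩ := H6.exists_conj_mem_sylow h5 P
    have h6 := h.comm _ (hd _ (Subgroup.mem_sup_left (Subgroup.mem_zpowers _))) _
      (hd _ (Subgroup.mem_sup_right (Subgroup.mem_zpowers _)))
    refine hv (Subtype.ext (mul_eq_one_iff_eq_inv.2 ?_))
    rw [← h3]
    calc (v : G) = d⁻¹ * (d * v * d⁻¹ * (d * (c * z * c⁻¹) * d⁻¹)) * d * (c * z * c⁻¹)⁻¹ := by group
      _ = _ := by rw [← h6]; group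
  rw [key] at hA hC
  have v₂ := fun u => h.apply_of_const (hconst χ₂ h₂).2 (u := u)
  have v₃ := fun u => h.apply_of_const (hconst χ₃ h₃).2 (u := u)
  have v₄ : (ζ i : G → ℂ) z = 3 * ε := by
    rw [h.apply_of_exc (fun j => hc j i) hz1, Finset.sum_congr rfl (g := fun _ => 1) fun m hm => by
      obtain ⟨k, hk⟩ := orbOf_eq_iff.1 (Finset.mem_filter.1 hm).2.symm
      rw [← hk, dact_apply]
      exact hl _ (by rw [← map_mul, hz2, map_one]), Finset.sum_const, h.card_fiber, he]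
    simp [mul_comm]
  have d₂ := h.dvd_degree_of_const (hconst χ₂ h₂).2
  have d₃ := h.dvd_degree_of_const (hconst χ₃ h₃).2
  rw [v₂ _ hz1, v₃ _ hz1, v₄] at hC
  simp only [irrOne_apply] at hA hC
  have n₂ := χ₂.2.apply_one_ne_zero
  have n₃ := χ₃.2.apply_one_ne_zero
  have n₄ := (ζ i).2.apply_one_ne_zero
  have hε2 : (ε : ℂ) ^ 2 = 1 := by rcases hε with rfl | rfl <;> simp
  have e₂' : (col i χ₂ : ℂ) ^ 2 = 1 := by exact_mod_cast e₂
  have e₃' : (col i χ₃ : ℂ) ^ 2 = 1 := by exact_mod_cast e₃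
  have h16' : (16 : ℤ) ∣ Nat.card (sP P) := by exact_mod_cast h16
  have fin : -col i χ₂ * charDegree (χ₂ : G → ℂ) = 1 := by
    refine eq_one_of_brauer_eq (b := -col i χ₃ * charDegree (χ₃ : G → ℂ)) ?_ ?_ ?_
    · rw [← e₂]
      exact (h16'.trans d₂).trans ⟨-col i χ₂, by ring⟩
    · rw [← e₃]
      exact (h16'.trans d₃).trans ⟨-col i χ₃, by ring⟩
    · refine Int.cast_injective (α := ℂ) ?_
      push_cast
      rw [χ₂.2.cast_charDegree, χ₃.2.cast_charDegree]
      set c₂ := (col i χ₂ : ℂ)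
      set c₃ := (col i χ₃ : ℂ)
      set m₂ := (χ₂ : G → ℂ) 1
      set m₃ := (χ₃ : G → ℂ) 1
      set m₄ := (ζ i : G → ℂ) 1
      have h1 : 1 + -c₂ * m₂ + -c₃ * m₃ = ε * m₄ := by linear_combination -hA
      have h2 : -(m₂ * m₃ * m₄) + c₂ ^ 3 * m₃ * m₄ + c₃ ^ 3 * m₂ * m₄ + 9 * ε ^ 3 * m₂ * m₃ = 0 := by
        field_simp at hC
        linear_combination hC
      rw [h1]
      linear_combination (-ε * c₂ * c₃) * h2 + (ε * c₃ * m₃ * m₄ * (c₂ ^ 2 + 1)) * e₂' +
        (ε * c₂ * m₂ * m₄ * (c₃ ^ 2 + 1)) * e₃' + (9 * c₂ * c₃ * m₂ * m₃ * (ε ^ 2 + 1)) * hε2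
  have hd := χ₂.2.charDegree_pos
  have hc₂ : col i χ₂ = -1 ∧ (charDegree (χ₂ : G → ℂ) : ℤ) = 1 := by
    rcases Int.eq_one_or_neg_one_of_mul_eq_one' fin with h1 | h1 <;> omega
  refine ⟨χ₂, Finset.ne_of_mem_erase h₂, fun g hg => ?_⟩
  obtain ⟨u, hu, hu'⟩ := h.exists_apply_eq (M := M) hg
  rw [hu' _ (hconst χ₂ h₂).1, v₂ _ hu, hc₂.1, ← χ₂.2.cast_charDegree]
  rw [show charDegree (χ₂ : G → ℂ) = 1 by exact_mod_cast hc₂.2]
  simp

theorem FrobSyl.normal_of_ker {P : Sylow 2 G} (h : FrobSyl P) (he : (cP P).relIndex (nP P) = 3)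
    (hO : pPrimeCore 2 G = ⊥) {χ : IrrCharacter G} (h1 : χ ≠ irrOne G)
    (hχ : ∀ g, 2 ∣ orderOf g → (χ : G → ℂ) g = (χ : G → ℂ) 1) :
    (P : Subgroup G).Normal ∧ cP P = P ∧ (P : Subgroup G).index = 3 := by
  set K := charKer (χ : G → ℂ) with hK
  have hKn : K.Normal := χ.2.isCharacter.normal_charKer
  have hK2 : ∀ g, 2 ∣ orderOf g → g ∈ K := fun g hg => χ.2.isCharacter.mem_charKer.2 (hχ g hg)
  have hKt : K ≠ ⊤ := fun e => h1 (Subtype.ext (χ.2.eq_one_of_forall_eq fun g =>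
    χ.2.isCharacter.mem_charKer.1 (show g ∈ K from e ▸ Subgroup.mem_top g)))
  have hP1 : (P : Subgroup G) ≠ ⊥ := fun e => by
    have h2 : nP P ≤ cP P := fun g _ a ha => by
      rw [show a = 1 from Subgroup.mem_bot.1 (e ▸ ha), one_mul, mul_one]
    rw [Subgroup.relIndex_eq_one.2 h2] at he
    omega
  obtain ⟨z, hz, hz1⟩ := ((P : Subgroup G).bot_or_exists_ne_one).resolve_left hP1
  have hPK : (P : Subgroup G) ≤ K := fun u hu => by
    by_cases hu1 : u = 1
    · rw [hu1]; exact one_mem _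
    · exact hK2 u (by_contra fun e => hu1 (eq_one_of_pElt_of_pReg (isPElt_of_mem P.2 hu) e))
  have hCK : cP P ≤ K := fun c hc => by
    by_cases h2 : 2 ∣ orderOf c
    · exact hK2 c h2
    · refine (K.mul_mem_cancel_left (hPK hz)).1 (hK2 _ (by_contra fun e => hz1 ?_))
      rw [← pPart_mul_of (hc z hz) (isPElt_of_mem P.2 hz) h2]
      exact pPart_of_pReg e
  have hKN : K ⊓ nP P ≤ cP P := by
    have h2 := Subgroup.relIndex_mul_relIndex (cP P) (K ⊓ nP P) (nP P)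
      (le_inf hCK (H6.centralizer_le_normalizer' _)) inf_le_right
    rw [he] at h2
    rcases (Nat.dvd_prime Nat.prime_three).1 (Dvd.intro _ h2) with h3 | h3
    · exact Subgroup.relIndex_eq_one.1 h3
    · rw [h3] at h2
      have h4 := Subgroup.relIndex_eq_one.1 (show (K ⊓ nP P).relIndex (nP P) = 1 by omega)
      exact absurd ((sup_eq_right.2 (h4.trans inf_le_left)).symm.trans
        (P.normalizer_sup_eq_top' hPK)) hKt
  have hK' := hasNormalPComplement_of_normalizer_le P hPK fun g hg hn => hKN ⟨hg, hn⟩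
  have hKP : K = P := P.is_maximal' (fun x => by
    have h2 := mem_pPrimeCore_of_normal K hK' (pReg_mem (p := 2) x.2)
      (Nat.coprime_two_right.2 (odd_orderOf_pReg _))
    rw [hO, Subgroup.mem_bot, pReg_eq_one_iff] at h2
    obtain ⟨k, hk⟩ := h2
    exact ⟨k, Subtype.ext (by rw [← hk]; exact pow_orderOf_eq_one (x : G))⟩) hPK
  have hn : (P : Subgroup G).Normal := hKP ▸ hKn
  have hC : cP P = P := le_antisymm (hKP ▸ hCK) h.le_cP
  refine ⟨hn, hC, ?_⟩
  rwa [hC, show nP P = ⊤ from Subgroup.normalizer_eq_top _, Subgroup.relIndex_top_right] at he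

theorem brauer_homocyclic (P : Sylow 2 G) (hr : RankTwo (P : Subgroup G))
    (h16 : 16 ∣ Nat.card (sP P)) {x : sP P} (hx : x * x ≠ 1) (hO : pPrimeCore 2 G = ⊥) :
    (P : Subgroup G).Normal ∧ cP P = P ∧
      ((P : Subgroup G).index = 1 ∨ (P : Subgroup G).index = 3) := by
  have h : FrobSyl P := ⟨hr.comm, fun w hw hw1 g hg hgw => hr.mem_centralizer P hg hw hw1 hgw⟩
  rcases hr.relIndex_eq P with he | he
  · have h1 := H2.hasNormalPComplement_iff_pResidual.1 (show HasNormalPComplement 2 G from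
      ⟨P, _, inferInstance, MonoidHom.ker_transferSylow_isComplement' _
        (Subgroup.relIndex_eq_one.mp he)⟩)
    have h2 := H1.le_pPrimeCore (H1.pResidual_normal 2 G)
      ((Nat.Prime.coprime_iff_not_dvd Nat.prime_two).2 h1).symm
    rw [hO, le_bot_iff, H1.pResidual_eq_bot_iff] at h2
    have h3 : (⊤ : Subgroup G) = P := P.is_maximal' (h2.to_subgroup ⊤) le_top
    exact ⟨h3 ▸ inferInstance, le_antisymm (h3 ▸ le_top) h.le_cP, Or.inl (h3 ▸ Subgroup.index_top)⟩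
  · obtain ⟨χ, h1, h2⟩ := h.exists_ker he h16 hx
    obtain ⟨h3, h4, h5⟩ := h.normal_of_ker he hO h1 h2
    exact ⟨h3, h4, Or.inr h5⟩

end Cfsg.Agent.H5
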