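import Cfsg.Agent.H5.ZStar
import Cfsg.Agent.H3.BSQ8

/-!
# Glauberman's Z*-theorem
-/

set_option autoImplicit false

namespace Cfsg.Agent.H5

open Cfsg

universe u

theorem bsq8 : BSQ8.{u} := fun _ _ _ S e _ hz hz2 g => H3.brauer_suzuki_Q8 S e hz hz2 g

/-- Glauberman's Z*-theorem. -/
theorem zstar {G : Type u} [Group G] [Finite G] {z : G} (hz : IsIsolatedInvolution z) (g : G) :
    z * g * z⁻¹ * g⁻¹ ∈ oddCore G :=
  zstar_of_bsq8 bsq8 hz g

end Cfsg.Agent.H5
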